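import Cfsg.Agent.Lib.Helper90.Sp.Defs
import Cfsg.Agent.Lib.Helper94.SympF2

/-!
# Piece E3b of the symplectic campaign: over the field with two elements the stabiliser of a
decomposition into nondegenerate planes preserves a quadratic form
-/

set_option autoImplicit false

namespace Cfsg.Agent.Lib.Helper86.Sp

open Cfsg Cfsg.Geo Matrix Cfsg.Agent.Lib.Helper94
open LinearMap (BilinForm)
open scoped Kronecker MatrixGroups

section abs

variable {F V : Type*} [Field F] [AddCommGroup V] [Module F V]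

theorem oddQ_eq (B : BilinForm F V) {t : ℕ} (D : Fin t → Submodule F V)
    (h2 : ∀ x : F, x = 0 ∨ x = 1) (a b : Fin t → V) (ha : ∀ i, a i ∈ D i) (hb : ∀ i, b i ∈ D i)
    (hsp : ∀ i, ∀ d ∈ D i, ∃ x y : F, d = x • a i + y • b i) (v : V) :
    oddQ B D v = ∑ i, (B (a i) v + B (a i) v * B (b i) v + B (b i) v) :=
  Finset.sum_congr rfl (fun i _ => supp1_eq B D h2 a b ha hb hsp i v)

theorem expand (B : BilinForm F V) (hA : B.IsAlt) {t : ℕ} (D : Fin t → Submodule F V)
    (h2 : ∀ x : F, x = 0 ∨ x = 1) (a b : Fin t → V) (ha : ∀ i, a i ∈ D i) (hb : ∀ i, b i ∈ D i)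
    (hab : ∀ i, B (a i) (b i) = 1)
    (hsp : ∀ i, ∀ d ∈ D i, ∃ x y : F, d = x • a i + y • b i)
    (horth : ∀ i j, i ≠ j → ∀ u ∈ D i, ∀ v ∈ D j, B u v = 0)
    (hfam : ∀ x : V, ∃ c : Fin t → V, (∀ i, c i ∈ D i) ∧ ∑ i, c i = x) (v : V) :
    v = ∑ i, (B (b i) v • a i + B (a i) v • b i) := by
  obtain ⟨c, hc, hsum⟩ := hfam v
  have h1 : ∀ i, ∀ d ∈ D i, B d v = B d (c i) := by
    intro i d hd
    rw [← hsum, map_sum, Finset.sum_eq_single i]
    · intro j _ hj
      exact horth i j (Ne.symm hj) _ hd _ (hc j)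
    · simp
  have h3 : ∀ i, c i = B (b i) v • a i + B (a i) v • b i := by
    intro i
    obtain ⟨x, y, hxy⟩ := hsp i (c i) (hc i)
    have hba : B (b i) (a i) = 1 := by rw [alt_swap hA, hab, f2_neg h2]
    have haa : B (a i) (a i) = 0 := hA _
    have hbb : B (b i) (b i) = 0 := hA _
    rw [h1 i _ (ha i), h1 i _ (hb i), hxy]
    simp only [map_add, map_smul, hab, hba, haa, hbb, smul_eq_mul, mul_one, mul_zero, add_zero,
      zero_add]
  conv_lhs => rw [← hsum]
  exact Finset.sum_congr rfl (fun i _ => h3 i)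

theorem oddQ_polar (B : BilinForm F V) (hA : B.IsAlt) {t : ℕ} (D : Fin t → Submodule F V)
    (h2 : ∀ x : F, x = 0 ∨ x = 1) (a b : Fin t → V) (ha : ∀ i, a i ∈ D i) (hb : ∀ i, b i ∈ D i)
    (hab : ∀ i, B (a i) (b i) = 1)
    (hsp : ∀ i, ∀ d ∈ D i, ∃ x y : F, d = x • a i + y • b i)
    (horth : ∀ i j, i ≠ j → ∀ u ∈ D i, ∀ v ∈ D j, B u v = 0)
    (hfam : ∀ x : V, ∃ c : Fin t → V, (∀ i, c i ∈ D i) ∧ ∑ i, c i = x) (u v : V) :
    QuadraticMap.polar (oddQ B D) u v = B u v := by
  unfold QuadraticMap.polar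
  rw [oddQ_eq B D h2 a b ha hb hsp, oddQ_eq B D h2 a b ha hb hsp, oddQ_eq B D h2 a b ha hb hsp,
    ← Finset.sum_sub_distrib, ← Finset.sum_sub_distrib]
  have hv : B u v = B u (∑ i, (B (b i) v • a i + B (a i) v • b i)) :=
    congrArg (B u) (expand B hA D h2 a b ha hb hab hsp horth hfam v)
  rw [hv, map_sum]
  refine Finset.sum_congr rfl fun i _ => ?_
  rw [map_add, map_add, map_add, map_smul, map_smul, alt_swap hA u (a i), alt_swap hA u (b i),
    f2_neg h2, f2_neg h2]
  simp only [smul_eq_mul]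
  ring

theorem oddQ_zero (B : BilinForm F V) {t : ℕ} (D : Fin t → Submodule F V) : oddQ B D 0 = 0 := by
  unfold oddQ supp1
  simp

theorem oddQ_smul (B : BilinForm F V) {t : ℕ} (D : Fin t → Submodule F V)
    (h2 : ∀ x : F, x = 0 ∨ x = 1) (c : F) (v : V) : oddQ B D (c • v) = c ^ 2 * oddQ B D v := by
  rcases h2 c with rfl | rfl
  · rw [zero_smul, oddQ_zero]; ring
  · rw [one_smul]; ring

end abs

variable {F : Type*} [Field F]

theorem sp_blocks_two [Fintype F] (hq : Fintype.card F = 2) {m t : ℕ}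
    (D : Fin t → Submodule F (Fin m ⊕ Fin m → F))
    (hD : IsNondegenerateMDecomposition (sympForm m F) 2 D) :
    ∃ Q : (Fin m ⊕ Fin m → F) → F, IsNondegenerateQuadraticForm Q ∧
      (∀ u v, QuadraticMap.polar Q u v = sympForm m F u v) ∧
      decompositionStabilizer D ⊓ spGL m F ≤ quadSimilarityGroup Q := by
  classical
  have hA := sympB_isAlt (F := F) m
  have h2 : ∀ x : F, x = 0 ∨ x = 1 := by
    intro x
    by_contra hcon
    push Not at hcon
    have h3 : ({0, 1, x} : Finset F).card = 3 :=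
      Finset.card_eq_three.2 ⟨0, 1, x, zero_ne_one, hcon.1.symm, hcon.2.symm, rfl⟩
    have := Finset.card_le_univ ({0, 1, x} : Finset F)
    rw [h3, hq] at this
    omega
  have horth : ∀ i j, i ≠ j → ∀ u ∈ D i, ∀ v ∈ D j, sympB m F u v = 0 := by
    intro i j hij u hu v hv
    rw [sympB_apply]
    exact hD.orthogonal i j hij u hu v hv
  have hnd : ∀ i, ∀ w ∈ D i, (∀ z ∈ D i, sympB m F z w = 0) → w = 0 := by
    intro i w hw hz
    by_contra h0
    obtain ⟨x, hx, hne⟩ := (hD.nondegenerate i w hw h0).1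
    exact hne (by rw [← sympB_apply]; exact hz x hx)
  have hbasis := fun i => symp_plane_basis (sympB m F) hA (D i) (hnd i) (hD.decomp.finrank_eq i)
  choose a ha b hb hab hsp using hbasis
  have hpol : ∀ u v, QuadraticMap.polar (oddQ (sympB m F) D) u v = sympB m F u v :=
    oddQ_polar (sympB m F) hA D h2 a b ha hb hab hsp horth (orthDec_of hD).exists_family
  have hpolfun : QuadraticMap.polar (oddQ (sympB m F) D) = fun u v => sympB m F u v := by
    funext u v
    exact hpol u v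
  refine ⟨oddQ (sympB m F) D, ⟨oddQ_smul _ D h2, ?_, ?_⟩, fun u v => by rw [hpol, sympB_apply], ?_⟩
  · rw [hpolfun]
    exact ⟨fun x y v => by simp, fun c x v => by simp, fun v x y => by simp,
      fun c v x => by simp⟩
  · rw [hpolfun]
    intro v hv
    have hN := sympB_nondegenerate (F := F) m
    have hex : ∃ x, sympB m F v x ≠ 0 := by
      by_contra hcon
      push Not at hcon
      exact hv (hN.1 v hcon)
    obtain ⟨x, hx⟩ := hex
    refine ⟨⟨x, ?_⟩, ⟨x, hx⟩⟩
    show sympB m F x v ≠ 0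
    rw [alt_swap hA]
    exact neg_ne_zero.mpr hx
  · rintro g ⟨hgD, hgS⟩
    refine ⟨1, fun v => ?_⟩
    have := decStab_mem_funStab (sympB m F) D ((mem_spGL_iff m g).1 hgS)
      ((mem_decompositionStabilizer_iff D g).1 hgD) v
    rw [glEquiv_apply] at this
    rw [this, Units.val_one, one_mul]

end Cfsg.Agent.Lib.Helper86.Sp
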